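import Cfsg.Agent.Lib.Helper21.OAsch.Defs

set_option autoImplicit false

namespace Cfsg.Agent.Lib.Helper10.OAsch

open Cfsg Cfsg.Geo Matrix Cfsg.Agent.Lib.Helper13.Asch Cfsg.Agent.Lib.Helper21.OAsch
open scoped Kronecker MatrixGroups

variable {ι : Type} [Fintype ι] [DecidableEq ι] {F : Type*} [Field F]
variable {Q : (ι → F) → F} {G : Matrix ι ι F}

/-- O15a -/
theorem not_irr_of_le_scalars (h2 : 2 ≤ Fintype.card ι) {H : Subgroup (GL ι F)}
    (hH : H ≤ scalars ι F) : ¬ ActsIrreducibly (matrixSet H) := by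
  intro hirr
  obtain ⟨i, j, hij⟩ := Fintype.exists_pair_of_one_lt_card (α := ι) (by omega)
  have h1 := hirr (Submodule.span F {(Pi.single i 1 : ι → F)}) (by
    rintro s ⟨g, hg, rfl⟩
    obtain ⟨c, hc⟩ := (mem_scalars_iff g).1 (hH hg)
    rw [Submodule.map_le_iff_le_comap]
    intro v hv
    rw [Submodule.mem_comap, Matrix.toLin'_apply]
    show (g : Matrix ι ι F) *ᵥ v ∈ _
    rw [hc, Matrix.smul_mulVec, Matrix.one_mulVec]
    exact Submodule.smul_mem _ _ hv)
  rcases h1 with h1 | h1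
  · rw [Submodule.span_singleton_eq_bot] at h1
    have := congrFun h1 i
    simp at this
  · have h3 : (Pi.single j 1 : ι → F) ∈ Submodule.span F {(Pi.single i 1 : ι → F)} := by
      rw [h1]; trivial
    obtain ⟨c, hc⟩ := Submodule.mem_span_singleton.1 h3
    have := congrFun hc j
    simp [Pi.single_apply, hij.symm, hij] at this

end Cfsg.Agent.Lib.Helper10.OAsch
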