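import Cfsg.Agent.Lib.Helper21.OAsch.Defs
import Cfsg.Agent.Lib.Helper60.Asch.K1

set_option autoImplicit false

namespace Cfsg.Agent.Lib.Helper10.OAsch

open Cfsg Cfsg.Geo Matrix Cfsg.Agent.Lib.Helper13.Asch Cfsg.Agent.Lib.Helper21.OAsch
open scoped Kronecker MatrixGroups

variable {ι : Type} [Fintype ι] [DecidableEq ι] {F : Type*} [Field F]
variable {Q : (ι → F) → F} {G : Matrix ι ι F}

/-- O15b -/
theorem perfect_or_abelian {H N : Subgroup (GL ι F)} (hsc : H ⊓ scalars ι F = ⊥)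
    (h : MinNormal H N) : ⁅N, N⁆ = N ∨ ⁅N, N⁆ = ⊥ := by
  have h1 : ⁅N, N⁆ ≤ N := by
    rw [Subgroup.commutator_le]
    intro a ha b hb
    exact mul_mem (mul_mem (mul_mem ha hb) (inv_mem ha)) (inv_mem hb)
  rcases h.min ⁅N, N⁆ (by rw [hsc]; exact bot_le) h1
    (Cfsg.Agent.Lib.Helper60.Asch.nrm_commutator h.nrm) with h2 | h2
  · right; rw [h2, hsc]
  · left; exact h2

end Cfsg.Agent.Lib.Helper10.OAsch
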