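import Cfsg.Agent.Lib.Helper21.OAsch.Defs

set_option autoImplicit false

namespace Cfsg.Agent.Lib.Helper10.OAsch

open Cfsg Cfsg.Geo Matrix Cfsg.Agent.Lib.Helper13.Asch Cfsg.Agent.Lib.Helper21.OAsch
open scoped Kronecker MatrixGroups

variable {ι : Type} [Fintype ι] [DecidableEq ι] {F : Type*} [Field F]
variable {Q : (ι → F) → F} {G : Matrix ι ι F}

/-- R0 -/
theorem eq_inf_of_maximal' {K H M : Subgroup (GL ι F)} (hH : IsMaximalIn K H)
    (hHM : H ≤ M) (hM : ¬ K ≤ M) : H = M ⊓ K := by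
  rcases hH.2 (M ⊓ K) (le_inf hHM hH.1.le) inf_le_right with h | h
  · exact h.symm
  · exact absurd (h ▸ inf_le_left) hM

end Cfsg.Agent.Lib.Helper10.OAsch
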