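import Cfsg.Agent.Lib.Helper21.OAsch.Defs

set_option autoImplicit false

namespace Cfsg.Agent.Lib.Helper10.OAsch

open Cfsg Cfsg.Geo Matrix Cfsg.Agent.Lib.Helper13.Asch Cfsg.Agent.Lib.Helper21.OAsch
open scoped Kronecker MatrixGroups

variable {ι : Type} [Fintype ι] [DecidableEq ι] {F : Type*} [Field F]
variable {Q : (ι → F) → F} {G : Matrix ι ι F}

/-- R10 -/
theorem not_raw_of_prime (hp : (Fintype.card ι).Prime) (H : Subgroup (GL ι F)) :
    ¬ RawT H ∧ ¬ RawW H := by
  constructor
  · rintro ⟨N, a, b, e, P, -, -, -, ha, hb, -, -⟩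
    have h := Fintype.card_congr e
    rw [Fintype.card_prod, Fintype.card_fin, Fintype.card_fin] at h
    rw [h] at hp
    exact Nat.not_prime_mul (by omega) (by omega) hp
  · rintro ⟨k, t, e, P, L, ht, -, -, -, -, -⟩
    have h := Fintype.card_congr e
    rw [Fintype.card_fun, Fintype.card_fin, Fintype.card_fin] at h
    rw [h] at hp
    exact Nat.Prime.not_prime_pow ht hp

end Cfsg.Agent.Lib.Helper10.OAsch
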