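import Cfsg.Agent.Lib.Helper21.OAsch.Defs
import Cfsg.Agent.Lib.Helper58.Asch.L0a

set_option autoImplicit false

namespace Cfsg.Agent.Lib.Helper10.OAsch

open Cfsg Cfsg.Geo Matrix Cfsg.Agent.Lib.Helper13.Asch Cfsg.Agent.Lib.Helper21.OAsch
open scoped Kronecker MatrixGroups

variable {ι : Type} [Fintype ι] [DecidableEq ι] {F : Type*} [Field F]
variable {Q : (ι → F) → F} {G : Matrix ι ι F}

theorem bf_iso {H : Subgroup (GL ι F)} (hH : Iso G H) {h : GL ι F} (hh : h ∈ H) (u v : ι → F) :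
    ((h : Matrix ι ι F) *ᵥ u) ⬝ᵥ (G *ᵥ ((h : Matrix ι ι F) *ᵥ v)) = u ⬝ᵥ (G *ᵥ v) := by
  have h1 := hH h hh
  rw [← Matrix.vecMul_transpose, ← Matrix.dotProduct_mulVec, Matrix.mulVec_mulVec,
    Matrix.mulVec_mulVec, h1]

theorem bf_symm (hO : OData Q G) (u v : ι → F) : u ⬝ᵥ (G *ᵥ v) = v ⬝ᵥ (G *ᵥ u) := by
  rw [Matrix.dotProduct_mulVec, ← Matrix.mulVec_transpose, hO.symm, dotProduct_comm]

theorem quad_iso (hO : OData Q G) {H : Subgroup (GL ι F)} (hH : Iso G H) {h : GL ι F}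
    (hh : h ∈ H) (v : ι → F) : Q ((h : Matrix ι ι F) *ᵥ v) = Q v := by
  have h1 := hO.quad ((h : Matrix ι ι F) *ᵥ v)
  rw [bf_iso hH hh, ← hO.quad v] at h1
  exact mul_left_cancel₀ hO.two h1

theorem inv_mulVec_mem {H : Subgroup (GL ι F)} {W : Submodule F (ι → F)}
    (hHW : H ≤ subspaceStabilizer W) {h : GL ι F} (hh : h ∈ H) {w : ι → F} (hw : w ∈ W) :
    ((h⁻¹ : GL ι F) : Matrix ι ι F) *ᵥ w ∈ W := by
  have := (hHW (inv_mem hh) w).1 hw
  exact this

theorem mulVec_mem {H : Subgroup (GL ι F)} {W : Submodule F (ι → F)}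
    (hHW : H ≤ subspaceStabilizer W) {h : GL ι F} (hh : h ∈ H) {w : ι → F} (hw : w ∈ W) :
    (h : Matrix ι ι F) *ᵥ w ∈ W := by
  have := (hHW hh w).1 hw
  exact this

theorem mulVec_inv_mulVec (h : GL ι F) (w : ι → F) :
    (h : Matrix ι ι F) *ᵥ (((h⁻¹ : GL ι F) : Matrix ι ι F) *ᵥ w) = w := by
  rw [Matrix.mulVec_mulVec, ← Units.val_mul, mul_inv_cancel, Units.val_one, Matrix.one_mulVec]

theorem exists_bf_ne_zero (hO : OData Q G) {v : ι → F} (hv : v ≠ 0) :
    ∃ x : ι → F, x ⬝ᵥ (G *ᵥ v) ≠ 0 := by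
  by_contra hcon
  push Not at hcon
  have h1 : G *ᵥ v = 0 := by
    funext i
    have := hcon (Pi.single i 1)
    simpa using this
  have h2 : G⁻¹ *ᵥ (G *ᵥ v) = v := by
    rw [Matrix.mulVec_mulVec, Matrix.nonsing_inv_mul _ hO.unit, Matrix.one_mulVec]
  rw [h1, Matrix.mulVec_zero] at h2
  exact hv h2.symm

/-- R7 -/
theorem compl_nondeg (hO : OData Q G) {H : Subgroup (GL ι F)} (hH : Iso G H)
    (W : Submodule F (ι → F)) (hnd : IsNondegenerateOn (QuadraticMap.polar Q) W)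
    (hHW : H ≤ subspaceStabilizer W) :
    ∃ W' : Submodule F (ι → F), IsNondegenerateOn (QuadraticMap.polar Q) W' ∧
      H ≤ subspaceStabilizer W' ∧ Module.finrank F W + Module.finrank F W' = Fintype.card ι := by
  set B : LinearMap.BilinForm F (ι → F) := Matrix.toBilin' G with hB
  have hBa : ∀ u v, B u v = u ⬝ᵥ (G *ᵥ v) := fun u v => Matrix.toBilin'_apply' G u v
  have hBnd : B.Nondegenerate :=
    Matrix.Nondegenerate.toBilin' (Matrix.nondegenerate_of_det_ne_zero hO.unit.ne_zero)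
  have hBrefl : B.IsRefl := by
    intro u v huv
    rw [hBa] at huv ⊢
    rw [bf_symm hO]; exact huv
  have hmem : ∀ v, v ∈ B.orthogonal W ↔ ∀ w ∈ W, w ⬝ᵥ (G *ᵥ v) = 0 := by
    intro v
    rw [LinearMap.BilinForm.mem_orthogonal_iff]
    constructor
    · intro h w hw
      have := h w hw
      rw [hBa] at this
      exact this
    · intro h w hw
      rw [hBa]
      exact h w hw
  have hfr := LinearMap.BilinForm.finrank_orthogonal hBnd W
  have hle : Module.finrank F W ≤ Module.finrank F (ι → F) := Submodule.finrank_le W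
  have hcard : Module.finrank F (ι → F) = Fintype.card ι := Module.finrank_fintype_fun_eq_card F
  have hsum : Module.finrank F W + Module.finrank F (B.orthogonal W) = Fintype.card ι := by
    rw [hfr, ← hcard]; omega
  have hinf : W ⊓ B.orthogonal W = ⊥ := by
    rw [eq_bot_iff]
    rintro v ⟨hv1, hv2⟩
    rw [Submodule.mem_bot]
    by_contra hv0
    obtain ⟨⟨x, hx, hxv⟩, -⟩ := hnd v hv1 hv0
    rw [hO.polar] at hxv
    exact hxv ((hmem v).1 hv2 x hx)
  have hsup : W ⊔ B.orthogonal W = ⊤ := by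
    apply Submodule.eq_top_of_finrank_eq
    have := Submodule.finrank_sup_add_finrank_inf_eq W (B.orthogonal W)
    rw [hinf, finrank_bot] at this
    rw [hcard]; omega
  refine ⟨B.orthogonal W, ?_, ?_, hsum⟩
  · intro v hv hv0
    obtain ⟨x, hx⟩ := exists_bf_ne_zero hO hv0
    have hxt : x ∈ W ⊔ B.orthogonal W := by rw [hsup]; trivial
    obtain ⟨w, hw, w', hw', rfl⟩ := Submodule.mem_sup.1 hxt
    have h1 : w' ⬝ᵥ (G *ᵥ v) ≠ 0 := by
      rw [add_dotProduct, (hmem v).1 hv w hw, zero_add] at hx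
      exact hx
    refine ⟨⟨w', hw', ?_⟩, ⟨w', hw', ?_⟩⟩
    · rw [hO.polar]; exact h1
    · rw [hO.polar, bf_symm hO]; exact h1
  · apply Cfsg.Agent.Lib.Helper58.Asch.le_subspaceStabilizer
    rintro s ⟨h, hh, rfl⟩
    rw [Submodule.map_le_iff_le_comap]
    intro v hv
    rw [Submodule.mem_comap, Matrix.toLin'_apply, hmem]
    intro w hw
    show w ⬝ᵥ (G *ᵥ ((h : Matrix ι ι F) *ᵥ v)) = 0
    rw [← mulVec_inv_mulVec h w, bf_iso hH hh]
    exact (hmem v).1 hv _ (inv_mulVec_mem hHW hh hw)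

end Cfsg.Agent.Lib.Helper10.OAsch
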