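import Cfsg.Agent.Lib.Helper10.OAsch.R7

set_option autoImplicit false

namespace Cfsg.Agent.Lib.Helper10.OAsch

open Cfsg Cfsg.Geo Matrix Cfsg.Agent.Lib.Helper13.Asch Cfsg.Agent.Lib.Helper21.OAsch
open scoped Kronecker MatrixGroups

variable {ι : Type} [Fintype ι] [DecidableEq ι] {F : Type*} [Field F]
variable {Q : (ι → F) → F} {G : Matrix ι ι F}

omit [DecidableEq ι] in
theorem bf_comb (G : Matrix ι ι F) (e f : ι → F) (a b a' b' : F) :
    (a • e + b • f) ⬝ᵥ (G *ᵥ (a' • e + b' • f)) =
      a * a' * (e ⬝ᵥ (G *ᵥ e)) + a * b' * (e ⬝ᵥ (G *ᵥ f)) + b * a' * (f ⬝ᵥ (G *ᵥ e))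
        + b * b' * (f ⬝ᵥ (G *ᵥ f)) := by
  simp only [add_dotProduct, smul_dotProduct, mulVec_add, mulVec_smul, dotProduct_add,
    dotProduct_smul, smul_eq_mul]
  ring

/-- R8 -/
theorem plus_plane_three [Fintype F] (hO : OData Q G) (hq : Fintype.card F = 3)
    {H : Subgroup (GL ι F)} (hH : Iso G H) (W : Submodule F (ι → F))
    (hnd : IsNondegenerateOn (QuadraticMap.polar Q) W) (hdim : Module.finrank F W = 2)
    (hplus : IsPlusTypeOn Q W) (hHW : H ≤ subspaceStabilizer W) :
    ∃ W' : Submodule F (ι → F), IsNondegenerateOn (QuadraticMap.polar Q) W' ∧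
      Module.finrank F W' = 1 ∧ H ≤ subspaceStabilizer W' := by
  obtain ⟨U, hUW, hUs, hUd⟩ := hplus
  have hU1 : Module.finrank F U = 1 := by omega
  have hUne : U ≠ ⊥ := by
    intro h; rw [h, finrank_bot] at hU1; omega
  obtain ⟨e, heU, he0⟩ := Submodule.exists_mem_ne_zero_of_ne_bot hUne
  have heW : e ∈ W := hUW heU
  have hee : e ⬝ᵥ (G *ᵥ e) = 0 := by
    rw [← hO.quad, hUs e heU, mul_zero]
  obtain ⟨-, ⟨f0, hf0W, hf0⟩⟩ := hnd e heW he0
  rw [hO.polar] at hf0
  set c := e ⬝ᵥ (G *ᵥ f0) with hc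
  set d := f0 ⬝ᵥ (G *ᵥ f0) with hd
  have h2 := hO.two
  set f : ι → F := (-(d / (2 * c))) • e + (1 : F) • f0 with hf
  have hfW : f ∈ W := W.add_mem (W.smul_mem _ heW) (W.smul_mem _ hf0W)
  have hf0e : f0 ⬝ᵥ (G *ᵥ e) = c := by rw [bf_symm hO]
  have hef : e ⬝ᵥ (G *ᵥ f) = c := by
    have := bf_comb G e f0 1 0 (-(d / (2 * c))) 1
    simp only [one_smul, zero_smul, add_zero] at this
    rw [hf]
    simp only [one_smul]
    rw [this, hee, ← hc]
    ring
  have hfe : f ⬝ᵥ (G *ᵥ e) = c := by rw [bf_symm hO]; exact hef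
  have hff : f ⬝ᵥ (G *ᵥ f) = 0 := by
    rw [hf, bf_comb, hee, ← hc, hf0e, ← hd]
    field_simp
    ring
  -- W is spanned by e, f
  have hli : LinearIndependent F ![e, f] := by
    rw [LinearIndependent.pair_iff]
    intro s t hst
    have h1 : (s • e + t • f) ⬝ᵥ (G *ᵥ ((0 : F) • e + (1 : F) • f)) = 0 := by
      rw [hst, zero_dotProduct]
    have h3 : (s • e + t • f) ⬝ᵥ (G *ᵥ ((1 : F) • e + (0 : F) • f)) = 0 := by
      rw [hst, zero_dotProduct]
    rw [bf_comb, hee, hef, hfe, hff] at h1 h3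
    constructor
    · have : s * c = 0 := by linear_combination h1
      exact (mul_eq_zero.1 this).resolve_right hf0
    · have : t * c = 0 := by linear_combination h3
      exact (mul_eq_zero.1 this).resolve_right hf0
  have hspan : Submodule.span F {e, f} = W := by
    apply Submodule.eq_of_le_of_finrank_eq
    · rw [Submodule.span_le]
      intro x hx
      rcases hx with rfl | hx
      · exact heW
      · rw [Set.mem_singleton_iff] at hx; rw [hx]; exact hfW
    · have := finrank_span_eq_card hli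
      rw [Fintype.card_fin] at this
      have hr : Set.range ![e, f] = {e, f} := by
        ext x
        simp only [Set.mem_range, Set.mem_insert_iff, Set.mem_singleton_iff]
        constructor
        · rintro ⟨i, rfl⟩
          fin_cases i
          · left; rfl
          · right; rfl
        · rintro (rfl | rfl)
          · exact ⟨0, rfl⟩
          · exact ⟨1, rfl⟩
      rw [hr] at this
      rw [this, hdim]
  set u : ι → F := (1 : F) • e + (1 : F) • f with hu
  have huW : u ∈ W := W.add_mem (W.smul_mem _ heW) (W.smul_mem _ hfW)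
  have huu : u ⬝ᵥ (G *ᵥ u) = 2 * c := by
    rw [hu, bf_comb, hee, hef, hfe, hff]; ring
  have huu0 : u ⬝ᵥ (G *ᵥ u) ≠ 0 := by rw [huu]; exact mul_ne_zero h2 hf0
  have hu0 : u ≠ 0 := by
    intro h; rw [h, zero_dotProduct] at huu0; exact huu0 rfl
  have hkey : ∀ h ∈ H, ∃ a : F, (h : Matrix ι ι F) *ᵥ u = a • u := by
    intro h hh
    have h1 : (h : Matrix ι ι F) *ᵥ u ∈ Submodule.span F {e, f} := by
      rw [hspan]; exact mulVec_mem hHW hh huW
    obtain ⟨a, b, hab⟩ := Submodule.mem_span_pair.1 h1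
    have h3 := bf_iso hH hh u u
    rw [← hab, bf_comb, hee, hef, hfe, hff, huu] at h3
    have h4 : a * b = 1 := by
      have : (2 * c) * (a * b) = (2 * c) * 1 := by linear_combination h3
      exact mul_left_cancel₀ (mul_ne_zero h2 hf0) this
    have ha0 : a ≠ 0 := by
      intro h; rw [h, zero_mul] at h4; exact zero_ne_one h4
    have h5 : a ^ 2 = 1 := by
      have := FiniteField.pow_card_sub_one_eq_one a ha0
      rw [hq] at this
      exact this
    have h6 : b = a := by
      have : a * b = a * a := by rw [h4, ← pow_two, h5]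
      exact mul_left_cancel₀ ha0 this
    refine ⟨a, ?_⟩
    rw [← hab, h6, hu]
    simp only [one_smul, smul_add]
  refine ⟨Submodule.span F {u}, ?_, finrank_span_singleton hu0, ?_⟩
  · intro w hw hw0
    obtain ⟨t, rfl⟩ := Submodule.mem_span_singleton.1 hw
    have ht : t ≠ 0 := by
      intro h; rw [h, zero_smul] at hw0; exact hw0 rfl
    refine ⟨⟨u, Submodule.mem_span_singleton_self u, ?_⟩,
      ⟨u, Submodule.mem_span_singleton_self u, ?_⟩⟩
    · rw [hO.polar, mulVec_smul, dotProduct_smul, smul_eq_mul]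
      exact mul_ne_zero ht huu0
    · rw [hO.polar, smul_dotProduct, smul_eq_mul]
      exact mul_ne_zero ht huu0
  · apply Cfsg.Agent.Lib.Helper58.Asch.le_subspaceStabilizer
    rintro s ⟨h, hh, rfl⟩
    rw [Submodule.map_le_iff_le_comap]
    intro v hv
    rw [Submodule.mem_comap, Matrix.toLin'_apply]
    obtain ⟨t, rfl⟩ := Submodule.mem_span_singleton.1 hv
    obtain ⟨a, ha⟩ := hkey h hh
    show (h : Matrix ι ι F) *ᵥ (t • u) ∈ _
    rw [mulVec_smul, ha]
    exact Submodule.smul_mem _ _ (Submodule.smul_mem _ _ (Submodule.mem_span_singleton_self u))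

end Cfsg.Agent.Lib.Helper10.OAsch
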