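import Cfsg.Agent.Lib.Helper10.OAsch.R8

set_option autoImplicit false

namespace Cfsg.Agent.Lib.Helper10.OAsch

open Cfsg Cfsg.Geo Matrix Cfsg.Agent.Lib.Helper13.Asch Cfsg.Agent.Lib.Helper21.OAsch
open scoped Kronecker MatrixGroups

variable {ι : Type} [Fintype ι] [DecidableEq ι] {F : Type*} [Field F]
variable {Q : (ι → F) → F} {G : Matrix ι ι F}

omit [DecidableEq ι] in
theorem ne_bot_top_iff (W : Submodule F (ι → F)) :
    (W ≠ ⊥ ∧ W ≠ ⊤) ↔ (0 < Module.finrank F W ∧ Module.finrank F W < Fintype.card ι) := by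
  have hcard : Module.finrank F (ι → F) = Fintype.card ι := Module.finrank_fintype_fun_eq_card F
  constructor
  · rintro ⟨h1, h2⟩
    constructor
    · rw [Nat.pos_iff_ne_zero]
      intro h
      exact h1 (Submodule.finrank_eq_zero.1 h)
    · rw [← hcard]
      exact Submodule.finrank_lt h2
  · rintro ⟨h1, h2⟩
    constructor
    · rintro rfl
      rw [finrank_bot] at h1; omega
    · rintro rfl
      rw [finrank_top, hcard] at h2; omega

/-- R9 -/
theorem even_nondeg [Fintype F] (hO : OData Q G) (h5 : 5 ≤ Fintype.card ι) {H : Subgroup (GL ι F)}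
    (hH : Iso G H) (h : C1b Q H) :
    ∃ W : Submodule F (ι → F), W ≠ ⊥ ∧ W ≠ ⊤ ∧ Even (Module.finrank F W) ∧
      IsNondegenerateOn (QuadraticMap.polar Q) W ∧
      ¬ (Fintype.card F = 3 ∧ Module.finrank F W = 2 ∧ IsPlusTypeOn Q W) ∧
      H ≤ subspaceStabilizer W := by
  have hodd := hO.odd
  -- step 1
  have step1 : ∃ W : Submodule F (ι → F), (W ≠ ⊥ ∧ W ≠ ⊤) ∧ Even (Module.finrank F W) ∧
      IsNondegenerateOn (QuadraticMap.polar Q) W ∧ H ≤ subspaceStabilizer W := by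
    obtain ⟨W0, h0, h1, hnd, hst⟩ := h
    have h01 := (ne_bot_top_iff W0).1 ⟨h0, h1⟩
    by_cases hev : Even (Module.finrank F W0)
    · exact ⟨W0, ⟨h0, h1⟩, hev, hnd, hst⟩
    · obtain ⟨W', hnd', hst', hsum⟩ := compl_nondeg hO hH W0 hnd hst
      refine ⟨W', (ne_bot_top_iff W').2 ⟨by omega, by omega⟩, ?_, hnd', hst'⟩
      rw [Nat.not_even_iff_odd] at hev
      rw [← hsum] at hodd
      by_contra hcon
      rw [Nat.not_even_iff_odd] at hcon
      exact (Nat.not_even_iff_odd.2 hodd) (hev.add_odd hcon)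
  obtain ⟨W, hW, hev, hnd, hst⟩ := step1
  by_cases hex : Fintype.card F = 3 ∧ Module.finrank F W = 2 ∧ IsPlusTypeOn Q W
  · obtain ⟨hq, hdim, hplus⟩ := hex
    obtain ⟨L, hLnd, hL1, hLst⟩ := plus_plane_three hO hq hH W hnd hdim hplus hst
    obtain ⟨W', hnd', hst', hsum⟩ := compl_nondeg hO hH L hLnd hLst
    have hb := (ne_bot_top_iff W').2 ⟨by omega, by omega⟩
    refine ⟨W', hb.1, hb.2, ?_, hnd', ?_, hst'⟩
    · rw [← hsum, hL1] at hodd
      by_contra hcon
      rw [Nat.not_even_iff_odd] at hcon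
      exact (Nat.not_even_iff_odd.2 hodd) (odd_one.add_odd hcon)
    · rintro ⟨-, h2, -⟩
      omega
  · exact ⟨W, hW.1, hW.2, hev, hnd, hex, hst⟩

end Cfsg.Agent.Lib.Helper10.OAsch
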